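import Mathlib
import Cfsg.Agent.H81.EmDefs
import Cfsg.Agent.H57.D8Main
import Cfsg.Agent.S0058

/-! The setup for a Sylow 3-normalizer `3² : SD₁₆`. -/

set_option autoImplicit false

namespace Cfsg.Agent.H85.EmS

open Subgroup Cfsg.Agent.H62 Cfsg.Agent.H81.Em
open scoped Pointwise

universe u

variable {G : Type u} [Group G] [Finite G]

/-- The hypotheses on the Sylow 3-subgroup. -/
structure Bs (M : Sylow 3 G) : Prop where
  c9 : Nat.card (M : Subgroup G) = 9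
  el : ∀ m ∈ (M : Subgroup G), m ^ 3 = 1
  cm : centralizer ((M : Subgroup G) : Set G) = M
  cg : ∀ g ∈ (M : Subgroup G), g ≠ 1 → C1 g ≤ Nm (M : Subgroup G)

omit [Finite G] in
theorem cj {H : Subgroup G} {g x : G} (hg : g ∈ Nm H) (hx : x ∈ H) : g * x * g⁻¹ ∈ H :=
  (mem_normalizer_iff.1 hg x).1 hx

omit [Finite G] in
theorem one_of_two_three {x : G} (h2 : x * x = 1) (h3 : x ^ 3 = 1) : x = 1 := by
  rw [pow_succ, pow_two, h2, one_mul] at h3; exact h3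

omit [Finite G] in
theorem ne_inv {x : G} (h3 : x ^ 3 = 1) (h1 : x ≠ 1) : x ≠ x⁻¹ := fun e =>
  h1 (one_of_two_three (by nth_rewrite 2 [e]; rw [mul_inv_cancel]) h3)

namespace Bs

variable {M : Sylow 3 G} (B : Bs M)
include B

omit [Finite G] in
theorem mem {g : G} (hg : ∀ s ∈ (M : Subgroup G), g * s * g⁻¹ = s) : g ∈ (M : Subgroup G) :=
  B.cm.le (mem_centralizer_iff.2 fun s hs => (mul_inv_eq_iff_eq_mul.1 (hg s hs)).symm)

omit [Finite G] in
theorem comm {x y : G} (hx : x ∈ (M : Subgroup G)) (hy : y ∈ (M : Subgroup G)) : x * y = y * x :=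
  (mem_centralizer_iff.1 (B.cm.ge hx) y hy).symm

omit [Finite G] in
theorem mc : IsMulCommutative (M : Subgroup G) := le_centralizer_iff_isMulCommutative.1 B.cm.ge

omit [Finite G] in
theorem nine {v w : G} (hv : v ∈ (M : Subgroup G)) (hw : w ∈ (M : Subgroup G)) (v1 : v ≠ 1)
    (w1 : w ≠ 1) (h1 : w ≠ v) (h2 : w ≠ v⁻¹) : H57.Nine (M : Subgroup G) v w :=
  H57.exists_nine B.c9 B.mc B.el hv v1 hw w1 h1 h2

theorem nm {W : Subgroup G} (hW : EA W) (h : (M : Subgroup G) ≤ Nm W) : W = ⊥ := by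
  have := B.mc
  have : Fact (Nat.Prime 2) := ⟨Nat.prime_two⟩
  have hc : ¬ IsCyclic (M : Subgroup G) := fun hc => by
    obtain ⟨x, hx⟩ := hc.exists_ofOrder_eq_natCard
    have h3 : orderOf x ∣ 3 := orderOf_dvd_of_pow_eq_one (Subtype.ext (B.el x x.2))
    rw [hx, B.c9] at h3
    omega
  obtain ⟨k, hk⟩ := hW.isPGroup.exists_card_eq
  rw [← S0058.result (M : Subgroup G) W hc h (by
    rw [B.c9, hk]; exact Nat.Coprime.pow_right _ (by norm_num))]
  refine eq_bot_iff.2 (iSup₂_le fun a ha w hw => ?_)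
  have hn : w ∈ Nm (M : Subgroup G) := B.cg a ha.1 ha.2 hw.2
  have hm : w ∈ (M : Subgroup G) := B.mem fun s hs => by
    have h1 : w * s * w⁻¹ * s⁻¹ ∈ (M : Subgroup G) := mul_mem (cj hn hs) (inv_mem hs)
    have h2 : w * s * w⁻¹ * s⁻¹ ∈ W := by
      have := W.mul_mem hw.1 (cj (h hs) (W.inv_mem hw.1))
      simpa only [mul_assoc] using this
    exact mul_inv_eq_one.1 (one_of_two_three (hW _ h2) (B.el _ h1))
  exact mem_bot.2 (one_of_two_three (hW w hw.1) (B.el w hm))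

theorem nmC {b : G} (hb : b * b = 1) (h : ∀ m ∈ (M : Subgroup G), Commute b (m * b * m⁻¹)) :
    b = 1 := by
  set k : Set G := {x | ∃ m ∈ (M : Subgroup G), x = m * b * m⁻¹} with hk
  have hcomm : ∀ x ∈ k, ∀ y ∈ k, x * y = y * x := by
    rintro _ ⟨m, hm, rfl⟩ _ ⟨n, hn, rfl⟩
    have := (h (m⁻¹ * n) (mul_mem (inv_mem hm) hn)).eq
    calc m * b * m⁻¹ * (n * b * n⁻¹) = m * (b * (m⁻¹ * n * b * (m⁻¹ * n)⁻¹)) * m⁻¹ := by group
      _ = n * b * n⁻¹ * (m * b * m⁻¹) := by rw [this]; group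
  have hc : ∀ x ∈ closure k, ∀ y ∈ closure k, x * y = y * x := fun x hx y hy =>
    Set.centralizer_centralizer_comm_of_comm hcomm _ (closure_le_centralizer_centralizer k hx) _
      (closure_le_centralizer_centralizer k hy)
  have hea : EA (closure k) := fun x hx => by
    induction hx using closure_induction with
    | mem x hx =>
      obtain ⟨m, -, rfl⟩ := hx
      calc m * b * m⁻¹ * (m * b * m⁻¹) = m * (b * b) * m⁻¹ := by group
        _ = 1 := by rw [hb]; group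
    | one => exact one_mul 1
    | mul x y hx hy ex ey =>
      calc x * y * (x * y) = x * (y * x) * y := by group
        _ = x * x * (y * y) := by rw [← hc x hx y hy]; group
        _ = 1 := by rw [ex, ey, one_mul]
    | inv x hx ex => rw [← mul_inv_rev, ex, inv_one]
  have hn : (M : Subgroup G) ≤ Nm (closure k) := fun n hn => mem_normalizer_fintype fun x hx => by
    induction hx using closure_induction with
    | mem x hx =>
      obtain ⟨m, hm, rfl⟩ := hx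
      exact subset_closure ⟨n * m, mul_mem hn hm, by group⟩
    | one => simpa using (closure k).one_mem
    | mul x y _ _ ex ey =>
      have := (closure k).mul_mem ex ey
      rwa [show n * x * n⁻¹ * (n * y * n⁻¹) = n * (x * y) * n⁻¹ by group] at this
    | inv x _ ex =>
      have := (closure k).inv_mem ex
      rwa [show (n * x * n⁻¹)⁻¹ = n * x⁻¹ * n⁻¹ by group] at this
  have := B.nm hea hn
  exact mem_bot.1 (this ▸ subset_closure ⟨1, one_mem _, by group⟩)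

omit B in
theorem conj_into {P : Subgroup G} (hP : IsPGroup 3 P) :
    ∃ c : G, ∀ x ∈ P, c * x * c⁻¹ ∈ (M : Subgroup G) := by
  have : Fact (Nat.Prime 3) := ⟨Nat.prime_three⟩
  obtain ⟨Q, hQ⟩ := hP.exists_le_sylow
  obtain ⟨c, hc⟩ := MulAction.exists_smul_eq G Q M
  exact ⟨c, fun x hx => by rw [← hc]; exact smul_mem_pointwise_smul _ _ _ (hQ hx)⟩

theorem nm9 (W : Subgroup G) (hW : EA W) (h1 : W ≠ ⊥) : ¬ 9 ∣ Nat.card (Nm W) := fun h9 => by
  have : Fact (Nat.Prime 3) := ⟨Nat.prime_three⟩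
  obtain ⟨K, hK⟩ := Sylow.exists_subgroup_card_pow_prime 3 (n := 2) h9
  have hP : Nat.card (K.map (Nm W).subtype) = 3 ^ 2 := by
    rw [card_map_of_injective (subtype_injective _), hK]
  obtain ⟨c, hc⟩ := conj_into (M := M) (IsPGroup.of_card hP)
  have e : MulAut.conj c • K.map (Nm W).subtype = (M : Subgroup G) :=
    eq_of_le_of_card_ge (by rintro _ ⟨x, hx, rfl⟩; exact hc x hx) (by
      rw [Nat.card_congr (equivSMul (MulAut.conj c) (K.map (Nm W).subtype)).toEquiv.symm, hP, B.c9]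
      norm_num)
  have hb := B.nm (hW.conj c) (by
    rw [← e]
    rintro _ ⟨_, ⟨x, -, rfl⟩, rfl⟩
    refine mem_normalizer_fintype ?_
    rintro _ ⟨w, hw, rfl⟩
    exact ⟨(x : G) * w * (x : G)⁻¹, cj x.2 hw, by
      show c * ((x : G) * w * (x : G)⁻¹) * c⁻¹ = c * x * c⁻¹ * (c * w * c⁻¹) * (c * x * c⁻¹)⁻¹
      group⟩)
  refine h1 (eq_bot_iff.2 fun w hw => mem_bot.2 ?_)
  have : c * w * c⁻¹ ∈ MulAut.conj c • W := ⟨w, hw, rfl⟩
  rw [hb, mem_bot] at this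
  simpa using this

omit B in
theorem mem_of_nine {x : G} (hx : x ∈ Nm (M : Subgroup G)) (h9 : x ^ 9 = 1) :
    x ∈ (M : Subgroup G) := by
  have : Fact (Nat.Prime 3) := ⟨Nat.prime_three⟩
  have hz : IsPGroup 3 (zpowers x) := by
    have h : orderOf x ∣ 3 ^ 2 := orderOf_dvd_of_pow_eq_one h9
    obtain ⟨k, -, hk⟩ := (Nat.dvd_prime_pow Nat.prime_three).1 h
    exact IsPGroup.of_card (n := k) (by rw [Nat.card_zpowers, hk])
  have hp : IsPGroup 3 ((M : Subgroup G) ⊔ zpowers x : Subgroup G) :=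
    IsPGroup.to_sup_of_normal_left' M.isPGroup' hz (zpowers_le.2 hx)
  rw [← M.is_maximal' hp le_sup_left]
  exact mem_sup_right (mem_zpowers x)

omit [Finite G] in
theorem fpf {a : G} (ha : a ∈ Nm (M : Subgroup G)) (a8 : a ^ 8 = 1) (z1 : a ^ 4 ≠ 1) {v : G}
    (hv : v ∈ (M : Subgroup G)) (hz : a ^ 4 * v * (a ^ 4)⁻¹ = v) : v = 1 := by
  by_contra v1
  set z := a ^ 4 with hzz
  have zz : z * z = 1 := by rw [hzz, ← pow_add, a8]
  have zn : z ∈ Nm (M : Subgroup G) := pow_mem ha 4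
  obtain ⟨m, hm, hmz⟩ : ∃ m ∈ (M : Subgroup G), z * m * z⁻¹ ≠ m := by
    by_contra hc
    push Not at hc
    exact z1 (one_of_two_three zz (B.el z (B.mem hc)))
  have hw : m⁻¹ * (z * m * z⁻¹) ∈ (M : Subgroup G) := mul_mem (inv_mem hm) (cj zn hm)
  have w1 : m⁻¹ * (z * m * z⁻¹) ≠ 1 := fun e => hmz (inv_mul_eq_one.1 e).symm
  have zw : z * (m⁻¹ * (z * m * z⁻¹)) * z⁻¹ = (m⁻¹ * (z * m * z⁻¹))⁻¹ := by
    calc z * (m⁻¹ * (z * m * z⁻¹)) * z⁻¹
        = z * m⁻¹ * z⁻¹ * ((z * z) * m * (z * z)⁻¹) := by group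
      _ = _ := by rw [zz]; group
  generalize m⁻¹ * (z * m * z⁻¹) = w at hw w1 zw
  have hn := B.nine hv hw v1 w1 (fun e => ne_inv (B.el v hv) v1 (by rw [e, hz] at zw; exact zw))
    (fun e => ne_inv (B.el v hv) v1 (by
      rw [e, show z * v⁻¹ * z⁻¹ = (z * v * z⁻¹)⁻¹ by group, hz, inv_inv] at zw
      exact zw.symm))
  obtain ⟨e, rfl, rfl, he⟩ := hn.coord
  obtain ⟨i, j, -, -, e1⟩ := he.ex _ (cj ha hv)
  obtain ⟨k, l, hk, hl, e2⟩ := he.ex _ (cj ha hw)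
  rw [he.inv] at zw
  have h1 : z * e k l * z⁻¹ = (e k l)⁻¹ := by
    have : z * a = a * z := by rw [hzz]; group
    rw [← e2]
    calc z * (a * e 0 1 * a⁻¹) * z⁻¹ = (z * a) * e 0 1 * (z * a)⁻¹ := by group
      _ = a * (z * e 0 1 * z⁻¹) * a⁻¹ := by rw [this]; group
      _ = _ := by rw [zw, ← he.inv]; group
  rw [he.cnj hz zw, he.inv, he.eq] at h1
  obtain rfl : k = 0 := by omega
  have h2 : z * e 0 1 * z⁻¹ = a * (a * (a * (a * e 0 1 * a⁻¹) * a⁻¹) * a⁻¹) * a⁻¹ := by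
    rw [hzz]; simp only [pow_succ, pow_zero, one_mul, mul_inv_rev, mul_assoc]
  rw [zw] at h2
  simp only [he.cnj e1 e2, he.eq] at h2
  interval_cases l <;> simp at h2

omit [Finite G] in
theorem zinv {a : G} (ha : a ∈ Nm (M : Subgroup G)) (a8 : a ^ 8 = 1) (z1 : a ^ 4 ≠ 1) {m : G}
    (hm : m ∈ (M : Subgroup G)) : a ^ 4 * m * (a ^ 4)⁻¹ = m⁻¹ := by
  have zz : a ^ 4 * a ^ 4 = 1 := by rw [← pow_add, a8]
  have h1 := cj (pow_mem ha 4) hm
  have := B.fpf ha a8 z1 (mul_mem hm h1) (by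
    rw [B.comm hm h1]
    calc a ^ 4 * (a ^ 4 * m * (a ^ 4)⁻¹ * m) * (a ^ 4)⁻¹
        = (a ^ 4 * a ^ 4) * m * (a ^ 4 * a ^ 4)⁻¹ * (a ^ 4 * m * (a ^ 4)⁻¹) := by group
      _ = _ := by rw [zz, ← B.comm hm h1]; group)
  exact (eq_inv_of_mul_eq_one_right this)

theorem reg {a : G} (ha : a ∈ Nm (M : Subgroup G)) (a8 : a ^ 8 = 1) (z1 : a ^ 4 ≠ 1) {g m : G}
    (hg : g ∈ (M : Subgroup G)) (g1 : g ≠ 1) (hm : m ∈ (M : Subgroup G)) (m1 : m ≠ 1) :
    ∃ i : Fin 8, a ^ (i : ℕ) * g * (a ^ (i : ℕ))⁻¹ = m := by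
  have key : ∀ i j : ℕ, i < j → j < 8 → a ^ i * g * (a ^ i)⁻¹ ≠ a ^ j * g * (a ^ j)⁻¹ := by
    intro i j hij hj e
    obtain ⟨d, rfl⟩ := Nat.exists_eq_add_of_lt hij
    have hc : Commute (a ^ (d + 1)) g := by
      rw [add_assoc, pow_add] at e
      calc a ^ (d + 1) * g = (a ^ i)⁻¹ * (a ^ i * a ^ (d + 1) * g * (a ^ i * a ^ (d + 1))⁻¹) *
            (a ^ i * a ^ (d + 1)) := by group
        _ = g * a ^ (d + 1) := by rw [← e]; group
    obtain ⟨k, hk⟩ : ∃ k, (d + 1) * k % 8 = 4 := by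
      have : d < 7 := by omega
      interval_cases d
      exacts [⟨4, rfl⟩, ⟨2, rfl⟩, ⟨4, rfl⟩, ⟨1, rfl⟩, ⟨4, rfl⟩, ⟨2, rfl⟩, ⟨4, rfl⟩]
    have h4 := hc.pow_left k
    rw [← pow_mul, pow_eq_pow_mod _ a8, hk] at h4
    exact g1 (B.fpf ha a8 z1 hg (by rw [h4.eq, mul_inv_cancel_right]))
  let f : Fin 8 → {x : (M : Subgroup G) // x ≠ 1} := fun i =>
    ⟨⟨a ^ (i : ℕ) * g * (a ^ (i : ℕ))⁻¹, cj (pow_mem ha _) hg⟩, fun e => g1 (by
      simpa using congrArg Subtype.val e)⟩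
  have hf : Function.Injective f := fun i j e => by
    have e' : a ^ (i : ℕ) * g * (a ^ (i : ℕ))⁻¹ = a ^ (j : ℕ) * g * (a ^ (j : ℕ))⁻¹ :=
      congrArg (fun x => x.1.1) e
    rcases lt_trichotomy (i : ℕ) j with h | h | h
    · exact (key _ _ h j.2 e').elim
    · exact Fin.ext h
    · exact (key _ _ h i.2 e'.symm).elim
  have hc := Finite.card_subtype_lt (p := fun x : (M : Subgroup G) => x ≠ 1) (x := 1) (by simp)
  rw [B.c9] at hc
  obtain ⟨i, hi⟩ := (hf.bijective_of_nat_card_le (by rw [Nat.card_fin]; omega)).2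
    ⟨⟨m, hm⟩, fun e => m1 (congrArg Subtype.val e)⟩
  exact ⟨i, congrArg (fun x => x.1.1) hi⟩

end Bs

/-- The frame. -/
structure Fm (M : Sylow 3 G) (a t g : G) : Prop extends Bs M where
  an : a ∈ Nm (M : Subgroup G)
  tn : t ∈ Nm (M : Subgroup G)
  a8 : a ^ 8 = 1
  z1 : a ^ 4 ≠ 1
  tt : t * t = 1
  t1 : t ≠ 1
  ta : t * a * t = a ^ 3
  gM : g ∈ (M : Subgroup G)
  g1 : g ≠ 1
  tg : t * g = g * t

omit [Finite G] in
theorem Bs.exists_g {M : Sylow 3 G} (B : Bs M) {a t : G} (an : a ∈ Nm (M : Subgroup G))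
    (tn : t ∈ Nm (M : Subgroup G)) (a8 : a ^ 8 = 1) (z1 : a ^ 4 ≠ 1) (tt : t * t = 1)
    (ta : t * a * t = a ^ 3) : ∃ g ∈ (M : Subgroup G), g ≠ 1 ∧ t * g = g * t := by
  have ti : t⁻¹ = t := inv_eq_of_mul_eq_one_right tt
  have zz : a ^ 4 * a ^ 4 = 1 := by rw [← pow_add, a8]
  have tz : t * a ^ 4 * t⁻¹ = a ^ 4 := by
    rw [← conj_pow, ti, ta, ← pow_mul, pow_eq_pow_mod _ a8]
  by_contra hc
  push Not at hc
  have h1 : ∀ m ∈ (M : Subgroup G), t * m * t⁻¹ = m⁻¹ := fun m hm => by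
    have h2 := cj tn hm
    refine eq_inv_of_mul_eq_one_right (by_contra fun h => hc _ (mul_mem hm h2) h ?_)
    rw [← mul_inv_eq_iff_eq_mul]
    calc t * (m * (t * m * t⁻¹)) * t⁻¹ = t * m * t⁻¹ * ((t * t) * m * (t * t)⁻¹) := by group
      _ = _ := by rw [tt, B.comm hm h2]; group
  have h2 : t * a ^ 4 ∈ (M : Subgroup G) := B.mem fun m hm => by
    calc t * a ^ 4 * m * (t * a ^ 4)⁻¹ = t * (a ^ 4 * m * (a ^ 4)⁻¹) * t⁻¹ := by group
      _ = m := by rw [B.zinv an a8 z1 hm, h1 _ (inv_mem hm), inv_inv]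
  have h3 : t * a ^ 4 = 1 := one_of_two_three (by
    calc t * a ^ 4 * (t * a ^ 4) = (t * a ^ 4 * t⁻¹) * (t * t) * a ^ 4 := by group
      _ = 1 := by rw [tz, tt, mul_one, zz]) (B.el _ h2)
  have h4 : t = a ^ 4 := by rw [eq_inv_of_mul_eq_one_left h3, inv_eq_of_mul_eq_one_right zz]
  rw [h4, ← pow_succ, ← pow_add, pow_eq_pow_mod _ a8] at ta
  have h5 : a ^ 2 = 1 := by
    have : a ^ 1 * a ^ 2 = a ^ 1 * 1 := by rw [← pow_add, mul_one]; exact ta.symm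
    exact mul_left_cancel this
  exact z1 (by rw [show 4 = 2 * 2 from rfl, pow_mul, h5, one_pow])

namespace Fm

variable {M : Sylow 3 G} {a t g : G} (F : Fm M a t g)
include F

omit [Finite G] in
theorem ti : t⁻¹ = t := inv_eq_of_mul_eq_one_right F.tt

omit [Finite G] in
theorem ri : (a * t * a⁻¹)⁻¹ = a * t * a⁻¹ := by
  rw [show (a * t * a⁻¹)⁻¹ = a * t⁻¹ * a⁻¹ by group, F.ti]

omit [Finite G] in
theorem hM : a * t * a⁻¹ * g * (a * t * a⁻¹) ∈ (M : Subgroup G) := by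
  have := cj (mul_mem (mul_mem F.an F.tn) (inv_mem F.an)) F.gM
  rwa [F.ri] at this

omit [Finite G] in
theorem th : t * (a * t * a⁻¹ * g * (a * t * a⁻¹)) * t⁻¹ = (a * t * a⁻¹ * g * (a * t * a⁻¹))⁻¹ := by
  have h1 : t * a * t⁻¹ = a ^ 3 := by rw [F.ti, F.ta]
  have h2 : t * (a * t * a⁻¹) * t⁻¹ = a * t * a⁻¹ * (a ^ 4)⁻¹ := by
    have h3 : t * a ^ 2 * t⁻¹ = a ^ 6 := by rw [← conj_pow, h1, ← pow_mul]
    have h4 : t * a ^ 6 * t⁻¹ = a ^ 2 := by
      rw [← conj_pow, h1, ← pow_mul, pow_eq_pow_mod _ F.a8]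
    calc t * (a * t * a⁻¹) * t⁻¹ = (t * a * t⁻¹) * t * (t * a * t⁻¹)⁻¹ := by group
      _ = a * (a ^ 2 * t * (a ^ 6)⁻¹) * a ^ 8 * a⁻¹ * (a ^ 4)⁻¹ := by rw [h1]; group
      _ = _ := by rw [F.a8, ← h4]; group
  have h5 : t * (a * t * a⁻¹) * t⁻¹ = (a * t * a⁻¹ * (a ^ 4)⁻¹)⁻¹ := by
    rw [← h2, show (t * (a * t * a⁻¹) * t⁻¹)⁻¹ = t * (a * t * a⁻¹)⁻¹ * t⁻¹ by group, F.ri]
  have h6 := F.zinv F.an F.a8 F.z1 (inv_mem F.gM)
  have h7 : t * g * t⁻¹ = g := by rw [F.tg, mul_inv_cancel_right]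
  calc t * (a * t * a⁻¹ * g * (a * t * a⁻¹)) * t⁻¹
      = (t * (a * t * a⁻¹) * t⁻¹) * (t * g * t⁻¹) * (t * (a * t * a⁻¹) * t⁻¹) := by group
    _ = a * t * a⁻¹ * (a ^ 4)⁻¹ * g * (a * t * a⁻¹ * (a ^ 4)⁻¹)⁻¹ := by
      nth_rewrite 1 [h2]; rw [h5, h7]
    _ = a * t * a⁻¹ * ((a ^ 4)⁻¹ * (a ^ 4 * g⁻¹ * (a ^ 4)⁻¹) * a ^ 4) * (a * t * a⁻¹)⁻¹ := by
      rw [h6]; group
    _ = _ := by
      rw [show (a * t * a⁻¹ * g * (a * t * a⁻¹))⁻¹ = (a * t * a⁻¹)⁻¹ * g⁻¹ * (a * t * a⁻¹)⁻¹ by group]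
      nth_rewrite 2 [F.ri]
      group

omit [Finite G] in
theorem co : ∃ e : ℕ → ℕ → G, g = e 1 0 ∧ a * t * a⁻¹ * g * (a * t * a⁻¹) = e 0 1 ∧
    H57.Co (M : Subgroup G) e ∧ ∀ i j, t * e i j * t⁻¹ = e i (2 * j) := by
  have h7 : t * g * t⁻¹ = g := by rw [F.tg, mul_inv_cancel_right]
  have th := F.th
  have h1 : a * t * a⁻¹ * g * (a * t * a⁻¹) ≠ 1 := fun e => F.g1 (by
    have r := F.ri
    generalize a * t * a⁻¹ = w at e r
    nth_rewrite 2 [← r] at e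
    simpa using e)
  have hM := F.hM
  generalize a * t * a⁻¹ * g * (a * t * a⁻¹) = h at th h1 hM
  have hn := F.nine F.gM hM F.g1 h1
    (fun e => ne_inv (F.el g F.gM) F.g1 (by rw [e, h7] at th; exact th))
    (fun e => ne_inv (F.el g F.gM) F.g1 (by
      rw [e, show t * g⁻¹ * t⁻¹ = (t * g * t⁻¹)⁻¹ by group, h7, inv_inv] at th
      exact th.symm))
  obtain ⟨e, e1, e2, he⟩ := hn.coord
  refine ⟨e, e1, e2, he, fun i j => ?_⟩
  rw [e1] at h7
  rw [e2, he.inv] at th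
  rw [he.cnj h7 th, he.eq]
  omega

theorem cg2 {x : G} (hx : x * g = g * x) : x ∈ (M : Subgroup G) ∨ x * t ∈ (M : Subgroup G) := by
  obtain ⟨e, e1, -, he, ht⟩ := F.co
  have key : ∀ y : G, y * g = g * y → ∀ k, y * e 0 1 * y⁻¹ = e k 1 → y ∈ (M : Subgroup G) := by
    intro y hy k hk
    have h1 : y * e 1 0 * y⁻¹ = e 1 0 := by rw [← e1, hy, mul_inv_cancel_right]
    have yn := F.cg g F.gM F.g1 (mem_centralizer_singleton_iff.2 hy)
    have h3 : y * y * y ∈ (M : Subgroup G) := F.mem fun s hs => by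
      obtain ⟨i, j, -, -, rfl⟩ := he.ex s hs
      rw [show y * y * y * e i j * (y * y * y)⁻¹ = y * (y * (y * e i j * y⁻¹) * y⁻¹) * y⁻¹ by group]
      simp only [he.cnj h1 hk, he.eq]
      simp only [mul_one, mul_zero, zero_add, and_true]
      omega
    exact Bs.mem_of_nine yn (by rw [← F.el _ h3]; simp only [pow_succ, pow_zero, one_mul, mul_assoc])
  have xn := F.cg g F.gM F.g1 (mem_centralizer_singleton_iff.2 hx)
  obtain ⟨k, l, -, hl, e2⟩ := he.ex _ (cj xn (he.mem 0 1))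
  have h1 : x * e 1 0 * x⁻¹ = e 1 0 := by rw [← e1, hx, mul_inv_cancel_right]
  interval_cases l
  · have := he.cnj h1 e2 k 0
    rw [show e (k * 1 + 0 * k) (k * 0 + 0 * 0) = e k 0 by simp] at this
    have h7 : e k 0 = e 0 1 := by simpa using this.trans e2.symm
    simp [he.eq] at h7
  · exact .inl (key x hx k e2)
  · refine .inr (key _ (by rw [mul_assoc, F.tg, ← mul_assoc, hx, mul_assoc]) (2 * k) ?_)
    rw [show x * t * e 0 1 * (x * t)⁻¹ = x * (t * e 0 1 * t⁻¹) * x⁻¹ by group, ht, he.cnj h1 e2,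
      he.eq]
    omega

theorem conj3 {γ : G} (h3 : γ ^ 3 = 1) (h1 : γ ≠ 1) : ∃ c : G, c * γ * c⁻¹ = g := by
  obtain ⟨c, hc⟩ := Bs.conj_into (M := M) (P := zpowers γ) (IsPGroup.of_card (n := 1) (by
    rw [Nat.card_zpowers, H57.orderOf_eq_three h3 h1, pow_one]))
  obtain ⟨i, hi⟩ := F.reg F.an F.a8 F.z1 F.gM F.g1 (hc γ (mem_zpowers γ)) (by simpa using h1)
  exact ⟨(a ^ (i : ℕ))⁻¹ * c, by
    rw [show (a ^ (i : ℕ))⁻¹ * c * γ * ((a ^ (i : ℕ))⁻¹ * c)⁻¹ =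
      (a ^ (i : ℕ))⁻¹ * (c * γ * c⁻¹) * a ^ (i : ℕ) by group, ← hi]; group⟩

omit [Finite G] F in
theorem cc' {c γ x : G} (hc : c * γ * c⁻¹ = g) (hx : x * γ = γ * x) :
    c * x * c⁻¹ * g = g * (c * x * c⁻¹) := by
  rw [← hc]
  calc c * x * c⁻¹ * (c * γ * c⁻¹) = c * (x * γ) * c⁻¹ := by group
    _ = _ := by rw [hx]; group

omit [Finite G] F in
theorem sq' {c x : G} (hx : x * x = 1) : c * x * c⁻¹ * (c * x * c⁻¹) = 1 := by
  calc c * x * c⁻¹ * (c * x * c⁻¹) = c * (x * x) * c⁻¹ := by group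
    _ = 1 := by rw [hx]; group

theorem invt {x : G} (hx : x * g = g * x) (h2 : x * x = 1) (h1 : x ≠ 1) :
    x * t ∈ (M : Subgroup G) :=
  (F.cg2 hx).resolve_left fun h => h1 (one_of_two_three h2 (F.el x h))

theorem c6 (γ x : G) (h3 : γ ^ 3 = 1) (h1 : γ ≠ 1) (hx : x * γ = γ * x) : x ^ 6 = 1 := by
  obtain ⟨c, hc⟩ := F.conj3 h3 h1
  have h : (c * x * c⁻¹) ^ 6 = 1 := by
    rcases F.cg2 (cc' hc hx) with h | h
    · rw [show 6 = 3 * 2 from rfl, pow_mul, F.el _ h, one_pow]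
    · have h4 := mul_mem h (cj F.tn h)
      have h5 : c * x * c⁻¹ * t * (t * (c * x * c⁻¹ * t) * t⁻¹) = (c * x * c⁻¹) ^ 2 := by
        calc _ = c * x * c⁻¹ * (t * t) * (c * x * c⁻¹) := by group
          _ = _ := by rw [F.tt, mul_one, pow_two]
      rw [show 6 = 2 * 3 from rfl, pow_mul, ← h5, F.el _ h4]
  simpa [conj_pow] using h

theorem card_N (h16 : 16 ∣ Nat.card (Nm (M : Subgroup G))) :
    Nat.card (Nm (M : Subgroup G)) = 144 := by
  have d9 := card_dvd_of_le (le_normalizer (H := (M : Subgroup G)))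
  rw [F.c9] at d9
  let f : Fin 8 × ↥(M : Subgroup G) × Fin 2 → Nm (M : Subgroup G) := fun p =>
    ⟨a ^ (p.1 : ℕ) * p.2.1 * t ^ (p.2.2 : ℕ),
      mul_mem (mul_mem (pow_mem F.an _) (le_normalizer p.2.1.2)) (pow_mem F.tn _)⟩
  have hf : Function.Surjective f := fun n => by
    obtain ⟨i, hi⟩ := F.reg F.an F.a8 F.z1 F.gM F.g1 (cj n.2 F.gM) (by simpa using F.g1)
    have h1 : (a ^ (i : ℕ))⁻¹ * n * g = g * ((a ^ (i : ℕ))⁻¹ * n) := by
      calc (a ^ (i : ℕ))⁻¹ * n * g = (a ^ (i : ℕ))⁻¹ * (n * g * (n : G)⁻¹) * n := by group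
        _ = _ := by rw [← hi]; group
    rcases F.cg2 h1 with h | h
    · exact ⟨(i, ⟨_, h⟩, 0), Subtype.ext (by simp [f])⟩
    · exact ⟨(i, ⟨_, h⟩, 1), Subtype.ext (by simp [f, mul_assoc, F.tt])⟩
  have h1 := Nat.card_le_card_of_surjective f hf
  rw [Nat.card_prod, Nat.card_prod, F.c9, Nat.card_fin, Nat.card_fin] at h1
  have h2 : 0 < Nat.card (Nm (M : Subgroup G)) := Nat.card_pos
  change 9 ∣ Nat.card (Nm (M : Subgroup G)) at d9
  omega

theorem kit : Kit a t (a * t * a⁻¹) (a ^ 4) g (a * t * a⁻¹ * g * (a * t * a⁻¹)) := by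
  have zz : a ^ 4 * a ^ 4 = 1 := by rw [← pow_add, F.a8]
  obtain ⟨e, e1, e2, he, ht⟩ := F.co
  refine ⟨F.a8, rfl, F.z1, F.tt, F.t1, F.ta, rfl, F.el g F.gM, F.g1, F.tg, ?_, rfl,
    F.comm F.gM F.hM, F.c6, ?_, ?_, ?_, ?_, ?_, F.nm9⟩
  · have := F.zinv F.an F.a8 F.z1 F.gM
    rwa [inv_eq_of_mul_eq_one_right zz] at this
  · intro γ x y h3 h1 x2 x1 y2 y1 hx hy
    obtain ⟨c, hc⟩ := F.conj3 h3 h1
    have k1 := F.invt (cc' hc hx) (sq' x2) (by simpa using x1)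
    have k2 := F.invt (cc' hc hy) (sq' y2) (by simpa using y1)
    have k3 := F.el _ (mul_mem k1 (inv_mem k2))
    rw [show c * x * c⁻¹ * t * (c * y * c⁻¹ * t)⁻¹ = c * (x * y⁻¹) * c⁻¹ by group,
      inv_eq_of_mul_eq_one_right y2] at k3
    simpa [conj_pow] using k3
  · intro γ x h3 h1 x2 x1 hx
    obtain ⟨c, hc⟩ := F.conj3 h3 h1
    have k0 := sq' (c := c) x2
    obtain ⟨i, j, -, -, k1⟩ := he.ex _ (F.invt (cc' hc hx) k0 (by simpa using x1))
    have k2 : c * x * c⁻¹ = e i j * t := by rw [← k1, mul_assoc _ t, F.tt, mul_one]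
    have k3 : e i j * (t * e i j * t⁻¹) = 1 := by
      rw [F.ti, ← k0, k2]; group
    rw [ht, he.mul, he.eq_one] at k3
    refine ⟨c⁻¹ * e 0 (2 * j), ?_⟩
    have k4 : e 0 (2 * j) * t * (e 0 (2 * j))⁻¹ = e i j * t := by
      calc e 0 (2 * j) * t * (e 0 (2 * j))⁻¹ = e 0 (2 * j) * (t * (e 0 (2 * j))⁻¹ * t⁻¹) * t := by
            group
        _ = _ := by
          rw [he.inv, ht, he.mul, mul_left_inj, he.eq]
          omega
    calc c⁻¹ * e 0 (2 * j) * t * (c⁻¹ * e 0 (2 * j))⁻¹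
        = c⁻¹ * (e 0 (2 * j) * t * (e 0 (2 * j))⁻¹) * c := by group
      _ = x := by rw [k4, ← k2]; group
  · have key : ∀ y ∈ (M : Subgroup G), y * t = t * y → y ∈ zpowers g := fun y hy hc => by
      obtain ⟨i, j, -, -, rfl⟩ := he.ex y hy
      have k1 := ht i j
      rw [← hc, mul_inv_cancel_right, he.eq] at k1
      have k2 : ∀ n : ℕ, g ^ n = e n 0 := fun n => by
        induction n with
        | zero => rw [pow_zero, eq_comm, he.eq_one]; omega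
        | succ n ih => rw [pow_succ, ih, e1, he.mul]
      rw [(he.eq i j i 0).2 (by omega), ← k2]
      exact pow_mem (mem_zpowers g) i
    intro x hx hc
    exact (F.cg2 hx).imp (fun h => key x h hc) fun h => key _ h (by
      rw [mul_assoc x, ← mul_assoc t, ← hc, mul_assoc])
  · intro b hb h
    refine F.nmC hb fun m hm => ?_
    by_cases m1 : m = 1
    · rw [m1]; simp
    obtain ⟨i, hi⟩ := F.reg F.an F.a8 F.z1 F.gM F.g1 hm m1
    have k := (h (8 - i)).eq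
    have k1 : a ^ (8 - (i : ℕ)) = (a ^ (i : ℕ))⁻¹ := by
      rw [eq_inv_iff_mul_eq_one, ← pow_add, Nat.sub_add_cancel i.2.le, F.a8]
    rw [k1] at k
    rw [← hi]
    generalize a ^ (i : ℕ) = c at k
    calc b * (c * g * c⁻¹ * b * (c * g * c⁻¹)⁻¹)
        = c * (c⁻¹ * b * c⁻¹⁻¹ * (g * (c⁻¹ * b * c⁻¹⁻¹) * g⁻¹)) * c⁻¹ := by group
      _ = _ := by rw [k]; group
  · intro b hb h1 h2 h3
    rw [e2] at h2 h3
    rw [e1] at h1 h3
    have ci : ∀ {x y : G}, Commute x y → ∀ c : G, Commute (c * x * c⁻¹) (c * y * c⁻¹) :=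
      fun h c => h.map (MulAut.conj c)
    have tri : ∀ v : G, b * (v * b * v⁻¹) * (v⁻¹ * b * v) = 1 →
        Commute b (v * b * v⁻¹) ∧ v⁻¹ * b * v⁻¹⁻¹ = b * (v * b * v⁻¹) := fun v hv => by
      have k1 : v⁻¹ * b * v⁻¹⁻¹ = b * (v * b * v⁻¹) := by
        have := sq' (c := v⁻¹) hb
        rw [inv_inv] at this ⊢
        rw [eq_inv_of_mul_eq_one_left hv, inv_eq_of_mul_eq_one_right this]
      refine ⟨?_, k1⟩
      have k2 := inv_eq_of_mul_eq_one_right (k1 ▸ sq' (c := v⁻¹) hb)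
      rw [mul_inv_rev, inv_eq_of_mul_eq_one_right hb,
        inv_eq_of_mul_eq_one_right (sq' (c := v) hb)] at k2
      exact k2.symm
    obtain ⟨p1, p2⟩ := tri _ h1
    obtain ⟨q1, q2⟩ := tri _ h2
    have key : ∀ i j, i < 3 → j < 3 → Commute (e i 0 * b * (e i 0)⁻¹) (e 0 j * b * (e 0 j)⁻¹) := by
      intro i j hi hj
      have o : e 0 0 = 1 := (he.eq_one 0 0).2 ⟨rfl, rfl⟩
      have o1 : e 2 0 = (e 1 0)⁻¹ := by rw [he.inv]
      have o2 : e 0 2 = (e 0 1)⁻¹ := by rw [he.inv]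
      have r0 := Commute.refl b
      interval_cases i <;> interval_cases j <;>
        try simp only [o, o1, o2, p2, q2, one_mul, inv_one, mul_one]
      exacts [r0, q1, r0.mul_right q1, p1.symm, h3, p1.symm.mul_right h3, r0.mul_left p1.symm,
        q1.mul_left h3, (r0.mul_left p1.symm).mul_right (q1.mul_left h3)]
    refine F.nmC hb fun m hm => ?_
    obtain ⟨i, j, -, hj, rfl⟩ := he.ex m hm
    have k := ci (key (2 * i % 3) j (Nat.mod_lt _ (by norm_num)) hj) (e i 0)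
    have k1 : e i 0 * e (2 * i % 3) 0 = 1 := by rw [he.mul, he.eq_one]; omega
    have k2 : e i 0 * e 0 j = e i j := by rw [he.mul, he.eq]; omega
    rwa [show ∀ x y : G, x * (y * b * y⁻¹) * x⁻¹ = x * y * b * (x * y)⁻¹ from fun x y => by group,
      show ∀ x y : G, x * (y * b * y⁻¹) * x⁻¹ = x * y * b * (x * y)⁻¹ from fun x y => by group,
      k1, k2, one_mul, inv_one, mul_one] at k

end Fm

/-- **SET** -/
theorem set : SetStmt.{u} := by
  intro G _ _ M c9 el cm cg hS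
  have : Fact (Nat.Prime 3) := ⟨Nat.prime_three⟩
  have B : Bs M := ⟨c9, el, cm, cg⟩
  obtain ⟨S⟩ : Nonempty (Sylow 2 (Nm (M : Subgroup G))) := inferInstance
  obtain ⟨h16, a, -, t, -, oa, ot, ta⟩ := hS S
  rw [← orderOf_coe] at oa ot
  have a8 : (a : G) ^ 8 = 1 := oa ▸ pow_orderOf_eq_one _
  have z1 : (a : G) ^ 4 ≠ 1 := fun e => by
    have := orderOf_dvd_of_pow_eq_one e
    rw [oa] at this
    omega
  have tt : (t : G) * t = 1 := by rw [← pow_two, ← ot, pow_orderOf_eq_one]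
  have t1 : (t : G) ≠ 1 := fun e => by rw [e, orderOf_one] at ot; omega
  have ta' : (t : G) * a * t = a ^ 3 := by
    have : (t : G) * a * (t : G)⁻¹ = a ^ 3 := congrArg Subtype.val ta
    rwa [inv_eq_of_mul_eq_one_right tt] at this
  obtain ⟨g, gM, g1, tg⟩ := B.exists_g a.2 t.2 a8 z1 tt ta'
  have F : Fm M a t g := ⟨B, a.2, t.2, a8, z1, tt, t1, ta', gM, g1, tg⟩
  have hN := F.card_N (h16 ▸ (S : Subgroup (Nm (M : Subgroup G))).card_subgroup_dvd_card)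
  have d3 := M.not_dvd_index
  have d4 := (M : Subgroup G).card_mul_index
  rw [c9] at d4
  refine ⟨⟨fun x hx => ?_, by omega, by omega⟩, ⟨(Nm (M : Subgroup G)).index, ?_, ?_⟩,
    _, _, _, _, _, _, F.kit⟩
  · obtain ⟨n, hn⟩ := hx
    have h0 : 0 < orderOf x := orderOf_pos x
    have h6 := orderOf_dvd_of_pow_eq_one (F.c6 (x ^ n) x
      (by rw [← pow_mul, mul_comm, ← hn, pow_orderOf_eq_one])
      (pow_ne_one_of_lt_orderOf (by omega) (by omega)) (by group))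
    have := Nat.le_of_dvd (by norm_num) h6
    generalize orderOf x = k at *
    interval_cases k <;> omega
  · rw [← hN, card_mul_index]
  · have := card_sylow_modEq_one 3 G
    rwa [M.card_eq_index_normalizer] at this

end Cfsg.Agent.H85.EmS
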