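import Cfsg.Agent.H12.K5Defs
import Cfsg.Agent.H54.K0Tri
import Cfsg.Agent.H29.K0R0
import Cfsg.Agent.H47.K0R
import Cfsg.Agent.H26.K0Ineq
import Cfsg.Agent.H49.K0Gal
import Cfsg.Agent.H21.Basic
import Cfsg.Agent.H19.GaloisBlock

set_option autoImplicit false

namespace Cfsg.Agent.H85.K5Fw

open Cfsg Cfsg.Agent.H76.K0

universe u

theorem arith (p a0 a1 a2 a3 a4 d1 d2 d3 d4 : ℤ) (hp : p ≠ 0) (h0 : ¬ p ∣ a0)
    (h1 : p ∣ a1 - a0 * d1) (h2 : p ∣ a2 - a0 * d2) (h3 : p ∣ a3 - a0 * d3) (h4 : p ∣ a4 - a0 * d4)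
    (hS : p ^ 2 ∣ 1 + d1 ^ 2 + d2 ^ 2 + d3 ^ 2 + d4 ^ 2)
    (hE : p * a0 = a0 ^ 2 + a1 ^ 2 + a2 ^ 2 + a3 ^ 2 + a4 ^ 2)
    (hT : a0 + a1 * d1 + a2 * d2 + a3 * d3 + a4 * d4 = 0 ∨
      a0 + a1 * d1 + a2 * d2 + a3 * d3 + a4 * d4 = p) : False := by
  obtain ⟨t1, h1⟩ := h1
  obtain ⟨t2, h2⟩ := h2
  obtain ⟨t3, h3⟩ := h3
  obtain ⟨t4, h4⟩ := h4
  obtain ⟨s, hS⟩ := hS
  obtain rfl : a1 = a0 * d1 + p * t1 := by linarith
  obtain rfl : a2 = a0 * d2 + p * t2 := by linarith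
  obtain rfl : a3 = a0 * d3 + p * t3 := by linarith
  obtain rfl : a4 = a0 * d4 + p * t4 := by linarith
  apply h0
  rcases hT with hT | hT
  · refine ⟨t1 ^ 2 + t2 ^ 2 + t3 ^ 2 + t4 ^ 2 - a0 ^ 2 * s, mul_left_cancel₀ hp ?_⟩
    linear_combination hE + 2 * a0 * hT - a0 ^ 2 * hS
  · refine ⟨-(t1 ^ 2 + t2 ^ 2 + t3 ^ 2 + t4 ^ 2 - a0 ^ 2 * s), mul_left_cancel₀ hp ?_⟩
    linear_combination -hE - 2 * a0 * hT + a0 ^ 2 * hS

theorem fw (ar : H12.K5.ArStmt) : H12.K5.FwStmt.{u} := by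
  classical
  intro G _ _ p hp M hM P h5c
  obtain ⟨h1, h2, h4, h5⟩ := H29.K0R0.r0 H47.K0R.r G p M hM P
  have hP : p ∣ Nat.card P := by
    by_contra h
    have := h5 h
    omega
  let t : Ht0 p M G := ⟨H21.triv G, H21.triv_mem_principal hM.2.1, by
    change ¬ p ∣ charDegree (fun _ : G => (1 : ℂ))
    rw [H21.charDegree_one]; exact hp.out.not_dvd_one⟩
  have hfin : Finite (Ht0 p M G) := Nat.finite_of_card_ne_zero (by omega)
  have := Fintype.ofFinite (Ht0 p M G)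
  have := Fintype.ofFinite G
  let e0 : Fin 5 ≃ Ht0 p M G := (Finite.equivFinOfCardEq h5c).symm
  let e : Fin 5 ≃ Ht0 p M G := e0.trans (Equiv.swap (e0 0) t)
  have he0 : e 0 = t := by simp [e]
  have hs : ∀ {A : Type} [AddCommMonoid A] (f : Ht0 p M G → A),
      ∑ᶠ z, f z = f t + f (e 1) + f (e 2) + f (e 3) + f (e 4) := by
    intro A _ f
    rw [finsum_eq_sum_of_fintype, ← e.sum_comp, Fin.sum_univ_five, he0]
  have ht : charDegree (t.1 : G → ℂ) = 1 := H21.charDegree_one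
  have h2' := h2 hP
  rw [hs, ht, one_pow] at h2' h4
  have hp2 : p ≠ 2 := by
    rintro rfl
    have a : ∀ i, charDegree ((e i).1 : G → ℂ) ^ 2 % 2 = 1 := fun i =>
      Nat.odd_iff.mp ((Nat.not_even_iff_odd.mp (fun h => (e i).2.2 h.two_dvd)).pow (n := 2))
    have a1 := a 1
    have a2 := a 2
    have a3 := a 3
    have a4 := a 4
    omega
  obtain ⟨k, hk⟩ := P.isPGroup'.exists_card_eq
  rcases k with _ | _ | k
  · rw [hk] at hP
    exact absurd (by simpa using hP) hp.out.ne_one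
  · simpa using hk
  exfalso
  have hS : (p : ℤ) ^ 2 ∣ 1 + (charDegree ((e 1).1 : G → ℂ) : ℤ) ^ 2 +
      (charDegree ((e 2).1 : G → ℂ) : ℤ) ^ 2 + (charDegree ((e 3).1 : G → ℂ) : ℤ) ^ 2 +
      (charDegree ((e 4).1 : G → ℂ) : ℤ) ^ 2 := by
    have := h4 (by rw [hk]; exact pow_dvd_pow p (by omega))
    exact_mod_cast this
  obtain ⟨a0, a1, a2, a3, a4, g0, g1, g2, g3, g4, hE⟩ := ar p hp.out hp2 _ _ _ _
    (fun h => (e 1).2.2 (Int.natCast_dvd_natCast.mp h)) hS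
  have hp0 : (p : ℂ) ≠ 0 := Nat.cast_ne_zero.mpr hp.out.ne_zero
  let c : Fin 5 → G → ℂ := fun i => ((e i).1 : G → ℂ)
  have hc0 : c 0 = fun _ => 1 := by
    show ((e 0).1 : G → ℂ) = _
    rw [he0]; rfl
  have orth : ∀ i j, classInner (c i) (c j) = if i = j then 1 else 0 := by
    intro i j
    split_ifs with h
    · subst h; exact H13.inner_irr_self (e i).1.2
    · exact H13.inner_irr_of_ne (e i).1.2 (e j).1.2
        fun h' => h (e.injective (Subtype.ext (Subtype.ext h')))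
  let θ : G → ℂ := (a0 : ℂ) • c 0 + (a1 : ℂ) • c 1 + (a2 : ℂ) • c 2 + (a3 : ℂ) • c 3 + (a4 : ℂ) • c 4
  have hg : ∀ (i) (a : ℤ), IsGeneralizedCharacter G ((a : ℂ) • c i) := fun i a =>
    H11.isGen_intCast_smul (H11.isGen_of_irr (e i).1.2) a
  have hθ : IsGeneralizedCharacter G θ :=
    H11.isGen_add (H11.isGen_add (H11.isGen_add (H11.isGen_add (hg _ _) (hg _ _)) (hg _ _))
      (hg _ _)) (hg _ _)
  have happ : ∀ g, θ g = (a0 : ℂ) + a1 * c 1 g + a2 * c 2 g + a3 * c 3 g + a4 * c 4 g := fun g => by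
    simp [θ, hc0]
  have hint : ∀ g, IsIntegral ℤ (θ g / p) := by
    intro g
    obtain ⟨α, hα, h⟩ := h1 hP g
    rw [hs, ht] at h
    have h' : (1 : ℂ) + (charDegree (c 1) : ℂ) * c 1 g + (charDegree (c 2) : ℂ) * c 2 g +
        (charDegree (c 3) : ℂ) * c 3 g + (charDegree (c 4) : ℂ) * c 4 g = p * α := by
      rw [← h]; simp [t, H21.triv_apply, c]
    have hb : ∀ (i) (a : ℤ), (p : ℤ) ∣ a - a0 * (charDegree (c i) : ℤ) →
        ∃ m : ℤ, (a : ℂ) = a0 * (charDegree (c i) : ℂ) + p * m := by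
      rintro i a ⟨m, hm⟩
      refine ⟨m, ?_⟩
      have : a = a0 * (charDegree (c i) : ℤ) + p * m := by linarith
      rw [this]; push_cast; ring
    obtain ⟨m1, b1⟩ := hb 1 a1 g1
    obtain ⟨m2, b2⟩ := hb 2 a2 g2
    obtain ⟨m3, b3⟩ := hb 3 a3 g3
    obtain ⟨m4, b4⟩ := hb 4 a4 g4
    have : θ g / p = a0 * α + m1 * c 1 g + m2 * c 2 g + m3 * c 3 g + m4 * c 4 g := by
      rw [happ, div_eq_iff hp0, b1, b2, b3, b4]
      linear_combination (a0 : ℂ) * h'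
    rw [this]
    have hz : ∀ k : ℤ, IsIntegral ℤ (k : ℂ) := fun k => isIntegral_algebraMap (x := k)
    have hi : ∀ (i) (m : ℤ), IsIntegral ℤ ((m : ℂ) * c i g) := fun i m =>
      (hz m).mul (H19.irr_isIntegral _ g)
    exact (((((hz a0).mul hα).add (hi _ _)).add (hi _ _)).add (hi _ _)).add (hi _ _)
  have hT := (H54.K0Tri.core (H26.K0Ineq.ineq H49.K0Gal.gal) G θ hθ p hp.out.pos hint a0
    (a0 ^ 2 + a1 ^ 2 + a2 ^ 2 + a3 ^ 2 + a4 ^ 2)
    (a0 + a1 * (charDegree (c 1) : ℤ) + a2 * (charDegree (c 2) : ℤ) +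
      a3 * (charDegree (c 3) : ℤ) + a4 * (charDegree (c 4) : ℤ)) ?_ ?_ ?_).2 hE
  · exact arith p a0 a1 a2 a3 a4 _ _ _ _ (by exact_mod_cast hp.out.ne_zero) g0 g1 g2 g3 g4 hS hE hT
  · rw [← hc0]
    simp [θ, H13.inner_add_left, H13.inner_smul_left, orth]
  · simp only [θ, H13.inner_add_left, H13.inner_add_right, H13.inner_smul_left,
      H13.inner_smul_right, orth, map_intCast]
    simp
    ring
  · rw [happ]
    simp only [c]
    rw [← H21.cast_deg (e 1).1, ← H21.cast_deg (e 2).1, ← H21.cast_deg (e 3).1,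
      ← H21.cast_deg (e 4).1]
    push_cast
    ring

end Cfsg.Agent.H85.K5Fw
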