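import Cfsg.Agent.H45.OnDefs

/-! Elements of components that fix a second point normalize the components there. -/

set_option autoImplicit false

namespace Cfsg.Agent.H85.OnE2

open Cfsg.Agent.H45.On

universe u v

variable {G : Type u} {Ω : Type v} [Group G] [MulAction G Ω] {S : S0 G Ω}

theorem keyA (T : S.Te) (e1 : S.E1) {x y : Ω} {M W : Subgroup G} {h b : G} (hM : S.C x M)
    (hh : h ∈ M) (hW : S.C y W) (hm : cj h W ≠ W) (hb : b ∈ W) (ib : Inv b) (bx : b • x = x) :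
    b * (h * b * h⁻¹) ∈ M ∧ b * (h * b * h⁻¹) ≠ 1 := by
  have bi : b⁻¹ = b := inv_eq_of_mul_eq_one_right ib.1
  constructor
  · have h1 : b * h * b⁻¹ ∈ M := e1 x y M W b hM hW hb ib bx ▸ cj_mem hh
    have := M.mul_mem h1 (M.inv_mem hh)
    rwa [bi, show b * h * b * h⁻¹ = b * (h * b * h⁻¹) by group] at this
  · intro e
    have h1 : h * b * h⁻¹ = b := by rw [← bi]; nth_rw 1 [bi]; exact (inv_eq_of_mul_eq_one_right e).symm
    have h2 : b ∈ cj h W ⊓ W := Subgroup.mem_inf.2 ⟨h1 ▸ cj_mem hb, hb⟩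
    rw [T.ti _ _ _ _ (S.conj h hW) hW hm] at h2
    exact ib.2 h2

theorem keyB (T : S.Te) (e1 : S.E1) (ev : S.EV) {x y : Ω} (hxy : x ≠ y) {M M' : Subgroup G} {h : G}
    (hM : S.C x M) (hh : h ∈ M) (hy : h • y = y) (hM' : S.C y M') (hm : cj h M' ≠ M')
    {W : Subgroup G} (hW : S.C y W) : cj h W ≠ W ∧ cj (h * h) W = W := by
  have at' : ∀ {U}, S.C y U → S.C y (cj h U) := fun hU => hy ▸ S.conj h hU
  have two : ∀ {U}, S.C y U → U = M' ∨ U = cj h M' := by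
    intro U hU
    by_contra hc
    rw [not_or] at hc
    obtain ⟨b, hb, ib, bx⟩ := ev y x M' hM'
    obtain ⟨c1, c2⟩ := keyA T e1 hM hh hM' hm hb ib bx
    refine hxy (T.d0 y x U hU fun t ht => (T.cn hM c1 c2 ?_).2)
    rw [← mul_assoc, S.comm hU hM' hc.1 t ht b hb, mul_assoc,
      S.comm hU (at' hM') hc.2 t ht _ (cj_mem hb), ← mul_assoc]
  have m2 : cj h (cj h M') ≠ cj h M' := fun e => hm (cj_inj e)
  have e2 : cj h (cj h M') = M' := (two (at' (at' hM'))).resolve_right m2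
  rcases two hW with rfl | rfl
  · exact ⟨hm, by rw [cj_mul, e2]⟩
  · exact ⟨m2, by rw [cj_mul, e2]⟩

theorem cj_pow {g : G} {M : Subgroup G} (h : cj g M = M) (n : ℕ) : cj (g ^ n) M = M := by
  induction n with
  | zero => rw [pow_zero, cj_one]
  | succ n ih => rw [pow_succ, cj_mul, h, ih]

theorem e2' [Finite G] (T : S.Te) (e1 : S.E1) (ev : S.EV) : S.E2 := by
  intro y x M' M h hM' hM hh hy
  by_contra hm
  rcases eq_or_ne x y with rfl | hxy
  · rcases eq_or_ne M M' with rfl | hne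
    · exact hm (cj_self hh)
    · exact hm (cj_of_comm fun m hm => S.comm hM hM' hne h hh m hm)
  obtain ⟨g, gx, gy⟩ := S.tr2 x y y x hxy hxy.symm
  have hM1 : S.C y (cj g M) := gx ▸ S.conj g hM
  have hM2 : S.C x (cj g M') := gy ▸ S.conj g hM'
  have hh' : g * h * g⁻¹ ∈ cj g M := cj_mem hh
  have hx : (g * h * g⁻¹) • x = x := by
    rw [← gy, smul_smul, inv_mul_cancel_right, mul_smul, hy]
  have hm' : cj (g * h * g⁻¹) (cj g M') ≠ cj g M' := fun e => hm (cj_inj (g := g) (by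
    rw [← cj_mul, inv_mul_cancel_right, cj_mul] at e; exact e))
  generalize g * h * g⁻¹ = k at hh' hx hm'
  generalize cj g M = M1 at hM1 hh'
  obtain ⟨n1, n2⟩ := keyB T e1 ev hxy.symm hM1 hh' hx hM2 hm' hM
  obtain ⟨n3, -⟩ := keyB T e1 ev hxy hM hh hy hM' hm hM1
  rcases Nat.even_or_odd' (orderOf k) with ⟨m, ho | ho⟩
  · have hpos := orderOf_pos k
    have ib : Inv (k ^ m) := ⟨by rw [← pow_add, ← two_mul, ← ho, pow_orderOf_eq_one],
      pow_ne_one_of_lt_orderOf (by omega) (by omega)⟩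
    have hb : k ^ m ∈ M1 := M1.pow_mem hh' m
    have bx : k ^ m • x = x := (MulAction.stabilizer G x).pow_mem hx m
    obtain ⟨c1, c2⟩ := keyA T e1 hM hh hM1 n3 hb ib bx
    refine n1 (T.cn hM c1 c2 ?_).1
    rw [← mul_assoc, (Commute.self_pow k m).eq, mul_assoc,
      S.comm hM1 (hy ▸ S.conj h hM1) n3.symm k hh' _ (cj_mem hb), ← mul_assoc]
  · apply n1
    have := cj_pow n2 (m + 1)
    rwa [← pow_two, ← pow_mul, show 2 * (m + 1) = orderOf k + 1 by omega, pow_succ,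
      pow_orderOf_eq_one, one_mul] at this

theorem e2 : E2Stmt.{u, v} := by
  intro G Ω _ _ _ _ S T e1 ev
  have h2 := e2' T e1 ev
  refine ⟨h2, fun x y M M' hM hM' hxy a ha b hb => ?_⟩
  have hne : M ≠ M' := fun e => hxy (T.uq x y M hM (e ▸ hM'))
  have h3 : b * a⁻¹ * b⁻¹ ∈ M := h2 x y M M' b hM hM' hb.1 hb.2 ▸ cj_mem (M.inv_mem ha.1)
  have h4 : a * b * a⁻¹ ∈ M' := h2 y x M' M a hM' hM ha.1 ha.2 ▸ cj_mem hb.1
  have h5 : a * b * a⁻¹ * b⁻¹ ∈ M ⊓ M' := Subgroup.mem_inf.2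
    ⟨by simpa [mul_assoc] using M.mul_mem ha.1 h3, M'.mul_mem h4 (M'.inv_mem hb.1)⟩
  rw [T.ti _ _ _ _ hM hM' hne, Subgroup.mem_bot, mul_inv_eq_one, mul_inv_eq_iff_eq_mul] at h5
  exact h5

end Cfsg.Agent.H85.OnE2
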