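import Cfsg.Agent.Lead.PcDefs
import Cfsg.Agent.S0205

/-! Project PL: the quotient is solvable when the top layer has odd index. -/

set_option autoImplicit false

namespace Cfsg.Agent.H85.PlSol2

open Subgroup Cfsg.Agent.Lead.Pc

universe u

theorem step {G : Type u} [Group G] (A B : Subgroup G) [A.Normal] [B.Normal] (h : A ≤ B)
    (h1 : Group.IsSolvable (B ⧸ A.subgroupOf B)) (h2 : Group.IsSolvable (G ⧸ B)) :
    Group.IsSolvable (G ⧸ A) := by
  refine Group.isSolvable_of_ker_le_range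
    (QuotientGroup.map (A.subgroupOf B) A B.subtype le_rfl)
    (QuotientGroup.map A B (MonoidHom.id G) h) fun x hx => ?_
  obtain ⟨g, rfl⟩ := QuotientGroup.mk_surjective x
  have hg : g ∈ B := (QuotientGroup.eq_one_iff g).1 hx
  exact ⟨QuotientGroup.mk ⟨g, hg⟩, rfl⟩

theorem sol2 : Sol2Stmt.{u} := by
  intro G _ _ S T S1 S2 R _ l ho
  have := l.n1
  have := l.n2
  refine step S S1 l.le1 (S0205.result l.odd1) (step S1 S2
    (fun g hg => (l.mem g).2 (mul_mem hg hg)) (Group.isSolvable_of_comm fun a b => ?_)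
    (S0205.result ho))
  have sq : ∀ x : S2 ⧸ S1.subgroupOf S2, x⁻¹ = x := fun x => by
    obtain ⟨g, rfl⟩ := QuotientGroup.mk_surjective x
    exact inv_eq_of_mul_eq_one_right ((QuotientGroup.eq_one_iff (g * g)).2 ((l.mem g).1 g.2))
  rw [← sq (a * b), mul_inv_rev, sq, sq]

end Cfsg.Agent.H85.PlSol2
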