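import Cfsg.Agent.H35.RfQ

/-! The cocode case: orders and the element of order three. -/

set_option autoImplicit false
set_option maxRecDepth 100000

namespace Cfsg.Agent.H85.RfTa

open Cfsg Subgroup Cfsg.Agent.H42 Cfsg.Agent.H18.Rf Cfsg.Agent.H35.RF
open Cfsg.Agent.H48 (IsWord)
open scoped commutatorElement Pointwise

universe u

attribute [local irreducible] inM isPerm pmul orb img toM

theorem par_symmDiff (s t : Finset GolayPt) : (symmDiff s t).card % 2 = (s.card + t.card) % 2 := by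
  have h1 : (symmDiff s t).card = (s \ t).card + (t \ s).card := by
    rw [symmDiff_def, Finset.sup_eq_union, Finset.card_union_of_disjoint disjoint_sdiff_sdiff]
  have h2 := Finset.card_sdiff_add_card_inter s t
  have h3 := Finset.card_sdiff_add_card_inter t s
  rw [Finset.inter_comm] at h3
  omega

theorem even_symmDiff {s t : Finset GolayPt} (hs : Even s.card) (ht : Even t.card) :
    Even (symmDiff s t).card := by
  rw [Nat.even_iff] at *
  rw [par_symmDiff]; omega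

/-- the sets supported outside the information set -/
def sh (m : ℕ) : ℕ := Nat.mul 4096 m

theorem sh_eq (m : ℕ) : sh m = 4096 * m := rfl

theorem sh_lt {m : ℕ} (hm : m < 4096) : sh m < 2 ^ 24 := by rw [sh_eq]; omega

theorem sh_xor (a b : ℕ) : Nat.xor (sh a) (sh b) = sh (Nat.xor a b) := by
  have := Nat.shiftLeft_xor_distrib (a := a) (b := b) (i := 12)
  simp only [Nat.shiftLeft_eq] at this
  rw [sh_eq, sh_eq, sh_eq, mul_comm, mul_comm _ b, mul_comm _ (Nat.xor a b)]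
  exact this.symm

theorem red (c : Finset GolayPt) : ∃ m < 4096, symmDiff c (toSet (sh m)) ∈ codeSets := by
  obtain ⟨n, hn, rfl⟩ := exists_toSet c
  have hk : n % 4096 < 4096 := Nat.mod_lt _ (by norm_num)
  have h1 : Nat.xor n (enc (n % 4096)) < 2 ^ 24 := xor_lt hn (enc_lt _)
  have h2 : Nat.xor n (enc (n % 4096)) % 4096 = 0 := by
    have := Nat.xor_mod_two_pow (a := n) (b := enc (n % 4096)) (n := 12)
    rw [show 2 ^ 12 = 4096 by norm_num, enc_mod hk, Nat.xor_self] at this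
    exact this
  refine ⟨Nat.xor n (enc (n % 4096)) / 4096, by omega, ?_⟩
  rw [sh_eq, Nat.mul_div_cancel' (Nat.dvd_of_mod_eq_zero h2), toSet_xor, symmDiff_symmDiff_cancel_left]
  exact toSet_mem_codeSets (isCode_enc hk)

/-- even, with the same parity on all tetrads -/
noncomputable def sp (n : ℕ) : Bool :=
  Bool.and (Nat.beq (Nat.mod (pc n) 2) 0) (allB (fun i =>
    Nat.beq (Nat.mod (pc (Nat.land n (fld 24 sext0 i))) 2)
      (Nat.mod (pc (Nat.land n (fld 24 sext0 0))) 2)) 6)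

theorem sp_iff {n : ℕ} (hn : n < 2 ^ 24) : sp n = true ↔ Even (toSet n).card ∧
    ∀ t ∈ famDec 6 sext0, ∀ t' ∈ famDec 6 sext0,
      (toSet n ∩ t).card % 2 = (toSet n ∩ t').card % 2 := by
  rw [sp, Bool.and_eq_true, beq_iff, allB_iff, Nat.even_iff, card_toSet hn]
  simp only [forall_famDec, card_toSet_inter _ hn, beq_iff]
  exact and_congr Iff.rfl ⟨fun h i hi j hj => (h i hi).trans (h j hj).symm,
    fun h i hi => h i hi 0 (by norm_num)⟩

theorem cnt_sp : cnt (fun m => force (sh m) sp) 4096 = 128 := by decide +kernel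

theorem chk_inj : allB (fun m => Bool.or (Nat.beq m 0) (Bool.not (isCode (sh m)))) 4096 =
    true := by decide +kernel

noncomputable def zb (n : ℕ) : Bool := Bool.or (isCode n) (isCode (Nat.xor n 8388615))

theorem chk_fW : allB (fun m => force (sh m) fun n =>
    Bool.or (Bool.not (sp n)) (Bool.or (zb n) (Bool.not (force (Nat.xor (img rS n) n) zb)))) 4096 =
    true := by decide +kernel

theorem inM_rS : inM rS = true := by decide +kernel
theorem inM_gF : ∀ g ∈ gF, inM g = true := allL_iff.1 (by decide +kernel)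

theorem rS_fix : ∀ t ∈ famDec 6 sext0, toM rS • t = t := by
  have : allB (fun i => Nat.beq (img rS (fld 24 sext0 i)) (fld 24 sext0 i)) 6 = true := by
    decide +kernel
  refine forall_famDec.2 fun i hi => ?_
  rw [toM_smul_toSet inM_rS, beq_iff.1 (allB_iff.1 this i hi)]

theorem rS_mem : toM rS ∈ GS :=
  allL_fix_fam (l := [rS]) (by simpa using inM_rS) (by decide +kernel) rS (by simp)

theorem rS_ne : toM rS ≠ 1 := fun e => absurd ((toM_eq_one_iff inM_rS).1 e) (by decide)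

theorem F_fpf {x : M24} (hx : x ∈ gen gF) (h : toM rS * x = x * toM rS) : x = 1 := by
  obtain ⟨y, hy, rfl, hp⟩ := forall_gen inM_gF (fuel := 70) (p := fun y =>
    Bool.or (Nat.beq y pid) (Bool.not (Nat.beq (pmul rS y) (pmul y rS)))) (by decide +kernel) hx
  rw [← toM_pmul inM_rS hy, ← toM_pmul hy inM_rS,
    toM_eq_iff (inM_pmul inM_rS hy) (inM_pmul hy inM_rS)] at h
  rw [h, Bool.or_eq_true, beq_iff, beq_iff.2 rfl] at hp
  rcases hp with e | e
  · rw [e, toM_pid]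
  · exact absurd e (by decide)

theorem F_sq {x : M24} (hx : x ∈ gen gF) : x * x = 1 := by
  obtain ⟨y, hy, rfl, hp⟩ := forall_gen inM_gF (fuel := 70) (p := fun y =>
    Nat.beq (pmul y y) pid) (by decide +kernel) hx
  rw [← toM_pmul hy hy, beq_iff.1 hp, toM_pid]

def g1 : ℕ := 352718766719119297492980555608894866
def g2 : ℕ := 646706652284937071880521469664121161
def f0 : ℕ := 976448692869377735270425038196672544
def f2 : ℕ := 984202951082164080105044112956360736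
def f3 : ℕ := 984724508489452699215480746259449888
def f4 : ℕ := 111890735759189500967275039606037505
def f5 : ℕ := 70399228063273750146191920654811874

theorem i1 : inM g1 = true := inM_gensS _ (.head _)
theorem i2 : inM g2 = true := inM_gensS _ (.tail _ (.head _))

theorem g1_inv : toM g1 * toM rS * (toM g1)⁻¹ * toM rS ∈ gen gF := by
  have a2 : f2 ∈ gF := by decide
  have a4 : f4 ∈ gF := by decide
  have a5 : f5 ∈ gF := by decide
  have : pmul (pmul (pmul g1 rS) (pinv g1)) rS = pmul (pmul f2 f4) f5 := by decide +kernel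
  rw [← toM_pinv i1, ← toM_pmul i1 inM_rS, ← toM_pmul (inM_pmul i1 inM_rS) (inM_pinv i1),
    ← toM_pmul (inM_pmul (inM_pmul i1 inM_rS) (inM_pinv i1)) inM_rS, this,
    toM_pmul (inM_pmul (inM_gF _ a2) (inM_gF _ a4)) (inM_gF _ a5),
    toM_pmul (inM_gF _ a2) (inM_gF _ a4)]
  exact mul_mem (mul_mem (toM_mem_gen a2) (toM_mem_gen a4)) (toM_mem_gen a5)

theorem g2_cen : toM g2 * toM rS * (toM g2)⁻¹ * (toM rS)⁻¹ ∈ gen gF := by
  have a0 : f0 ∈ gF := by decide
  have a3 : f3 ∈ gF := by decide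
  have a4 : f4 ∈ gF := by decide
  have a5 : f5 ∈ gF := by decide
  have : pmul (pmul (pmul g2 rS) (pinv g2)) (pinv rS) = pmul (pmul (pmul f0 f3) f4) f5 := by
    decide +kernel
  rw [← toM_pinv i2, ← toM_pinv inM_rS, ← toM_pmul i2 inM_rS,
    ← toM_pmul (inM_pmul i2 inM_rS) (inM_pinv i2),
    ← toM_pmul (inM_pmul (inM_pmul i2 inM_rS) (inM_pinv i2)) (inM_pinv inM_rS), this,
    toM_pmul (inM_pmul (inM_pmul (inM_gF _ a0) (inM_gF _ a3)) (inM_gF _ a4)) (inM_gF _ a5),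
    toM_pmul (inM_pmul (inM_gF _ a0) (inM_gF _ a3)) (inM_gF _ a4),
    toM_pmul (inM_gF _ a0) (inM_gF _ a3)]
  exact mul_mem (mul_mem (mul_mem (toM_mem_gen a0) (toM_mem_gen a3)) (toM_mem_gen a4))
    (toM_mem_gen a5)

theorem g1_not : toM g1 * toM rS * (toM g1)⁻¹ * (toM rS)⁻¹ ∉ gen gF := fun h => by
  have h1 := F_sq h
  have j := inM_pmul (inM_pmul (inM_pmul i1 inM_rS) (inM_pinv i1)) (inM_pinv inM_rS)
  rw [← toM_pinv i1, ← toM_pinv inM_rS, ← toM_pmul i1 inM_rS,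
    ← toM_pmul (inM_pmul i1 inM_rS) (inM_pinv i1),
    ← toM_pmul (inM_pmul (inM_pmul i1 inM_rS) (inM_pinv i1)) (inM_pinv inM_rS), ← toM_pmul j j,
    toM_eq_one_iff (inM_pmul j j)] at h1
  revert h1
  decide +kernel

theorem slA {H : Type*} [Group H] {S F : Subgroup H} {r : H} {s : Set H} (hS : S = closure s)
    (hr : r ∈ S) (hn : ∀ g ∈ S, ∀ f ∈ F, g * f * g⁻¹ ∈ F)
    (hs : ∀ g ∈ s, g * r * g⁻¹ * r⁻¹ ∈ F ∨ g * r * g⁻¹ * r ∈ F) :
    ∀ g ∈ S, g * r * g⁻¹ * r⁻¹ ∈ F ∨ g * r * g⁻¹ * r ∈ F := by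
  subst hS
  intro g hg
  induction hg using closure_induction with
  | mem x hx => exact hs x hx
  | one => left; simp
  | mul x y hx hy ihx ihy =>
    rcases ihy with b | b <;> rcases ihx with a | a
    · left; convert mul_mem (hn x hx _ b) a using 1; group
    · right; convert mul_mem (hn x hx _ b) a using 1; group
    · right; convert mul_mem (hn x hx _ b) (hn _ (inv_mem hr) _ (inv_mem a)) using 1; group
    · left; convert mul_mem (hn x hx _ b) (hn _ hr _ (inv_mem a)) using 1; group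
  | inv x hx ih =>
    rcases ih with a | a
    · left; convert hn _ (inv_mem hx) _ (inv_mem a) using 1; group
    · right; convert hn _ (inv_mem hx) _ (hn _ hr _ a) using 1; group

theorem isW (c : Finset GolayPt) : IsWord c ↔ c ∈ codeSets := Iff.rfl

theorem t0_eq : t0 = toSet 8388615 := rfl

theorem inj_sh {i j : ℕ} (hi : i < 4096) (hj : j < 4096)
    (e : symmDiff (toSet (sh i)) (toSet (sh j)) ∈ codeSets) : i = j := by
  rw [← toSet_xor, sh_xor] at e
  have hx : Nat.xor i j < 4096 := Nat.xor_lt_two_pow (n := 12) hi hj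
  have h1 := allB_iff.1 chk_inj _ hx
  have h2 := (toSet_mem_codeSets_iff (sh_lt hx)).1 e
  refine Nat.eq_of_xor_eq_zero (beq_iff.1 ?_)
  revert h1 h2
  generalize isCode (sh (Nat.xor i j)) = a
  generalize Nat.beq (Nat.xor i j) 0 = b
  cases a <;> cases b <;> simp

theorem bool_fW (a b c : Bool) (h : Bool.or (Bool.not c) (Bool.or a (Bool.not b)) = true)
    (hc : c = true) (hb : b = true) : a = true := by
  cases a <;> cases b <;> cases c <;> simp_all

theorem fW_sh {m : ℕ} (hm : m < 4096) (hs : sp (sh m) = true)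
    (h : zb (Nat.xor (img rS (sh m)) (sh m)) = true) : zb (sh m) = true := by
  have h1 := allB_iff.1 chk_fW m hm
  rw [force_eq, force_eq] at h1
  exact bool_fW _ _ _ h1 hs h

theorem zb_iff {n : ℕ} (hn : n < 2 ^ 24) :
    zb n = true ↔ IsWord (toSet n) ∨ IsWord (symmDiff (toSet n) t0) := by
  rw [zb, Bool.or_eq_true, ← toSet_mem_codeSets_iff hn,
    ← toSet_mem_codeSets_iff (xor_lt hn (by norm_num)), toSet_xor, isW, isW, t0_eq]

theorem evs (g : M24) (c : Finset GolayPt) (h : Even c.card) : Even (g • c).card := by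
  rwa [Finset.card_smul_finset]

theorem par_rS (c : Finset GolayPt) :
    ∀ t ∈ famDec 6 sext0, (symmDiff c (toM rS • c) ∩ t).card % 2 = 0 := fun t ht => by
  have h1 : symmDiff c (toM rS • c) ∩ t = symmDiff (c ∩ t) (toM rS • (c ∩ t)) := by
    rw [Finset.smul_finset_inter, rS_fix t ht]
    exact inf_symmDiff_distrib_right _ _ _
  rw [h1, par_symmDiff, Finset.card_smul_finset]; omega

theorem gensS_eq : gensS = [g1, g2] := rfl

theorem g1_mem : toM g1 ∈ GS := gensS_mem g1 (by rw [gensS_eq]; exact .head _)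

theorem slS (hn : ∀ g ∈ GS, ∀ f ∈ gen gF, g * f * g⁻¹ ∈ gen gF) : ∀ g ∈ GS,
    g * toM rS * g⁻¹ * (toM rS)⁻¹ ∈ gen gF ∨ g * toM rS * g⁻¹ * toM rS ∈ gen gF := by
  refine slA (s := toM '' {g | g ∈ gensS}) (by rw [GS_eq, gen]) rS_mem hn ?_
  rintro _ ⟨g, hg, rfl⟩
  rw [Set.mem_setOf_eq, gensS_eq, List.mem_pair] at hg
  rcases hg with e | e <;> rw [e]
  exacts [.inr g1_inv, .inl g2_cen]

section

variable {G : Type u} [Group G] {V : Subgroup G} {ρ : NN V →* M24} {ψ : Finset GolayPt → G} {ω : G}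

theorem eqw (st : St V ρ) (tod : Tod V ρ ψ) (c d : Finset GolayPt) (hc : Even c.card)
    (hd : Even d.card) : ψ c = ψ d ↔ symmDiff c d ∈ codeSets := by
  rw [← isW, ← tod.ker _ (even_symmDiff hc hd), tod.add c d hc hd, mul_eq_one_iff_eq_inv,
    inv_eq_of_mul_eq_one_right (st.el _ (tod.mem d hd))]

theorem rep (st : St V ρ) (tod : Tod V ρ ψ) {W : Subgroup G} (WV : W ≤ V)
    (hW : ∀ c : Finset GolayPt, Even c.card → (ψ c ∈ W ↔ ∀ t ∈ famDec 6 sext0,
      ∀ t' ∈ famDec 6 sext0, (c ∩ t).card % 2 = (c ∩ t').card % 2)) :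
    ∀ w ∈ W, ∃ m < 4096, sp (sh m) = true ∧ ψ (toSet (sh m)) = w := by
  intro w hw
  obtain ⟨c, hc, rfl⟩ := tod.sur w (WV hw)
  obtain ⟨m, hm, h⟩ := red c
  have ev : Even (toSet (sh m)).card := by
    have h1 := par_symmDiff c (toSet (sh m))
    have h2 := card_codeSets h
    rw [Nat.even_iff] at hc ⊢
    omega
  have e := (eqw st tod _ _ hc ev).2 h
  rw [e] at hw
  exact ⟨m, hm, (sp_iff (sh_lt hm)).2 ⟨ev, (hW _ ev).1 hw⟩, e.symm⟩

theorem card_W (st : St V ρ) (tod : Tod V ρ ψ) {W : Subgroup G} (WV : W ≤ V)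
    (hW : ∀ c : Finset GolayPt, Even c.card → (ψ c ∈ W ↔ ∀ t ∈ famDec 6 sext0,
      ∀ t' ∈ famDec 6 sext0, (c ∩ t).card % 2 = (c ∩ t').card % 2)) : Nat.card W = 2 ^ 7 := by
  rw [show Nat.card W = (W : Set G).ncard from Nat.card_coe_set_eq (W : Set G),
    ncard_eq_cnt (W : Set G) (fun m => ψ (toSet (sh m)))
      (fun m => force (sh m) sp) 4096 ?_ ?_, cnt_sp]
  · norm_num
  · intro i hi j hj pi pj e
    rw [force_eq] at pi pj
    exact inj_sh hi hj ((eqw st tod _ _ ((sp_iff (sh_lt hi)).1 pi).1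
      ((sp_iff (sh_lt hj)).1 pj).1).1 e)
  · intro x
    refine ⟨fun h => ?_, ?_⟩
    · obtain ⟨m, hm, h1, h2⟩ := rep st tod WV hW x h
      exact ⟨m, hm, (force_eq _ _).trans h1, h2⟩
    · rintro ⟨m, hm, hs, rfl⟩
      rw [force_eq] at hs
      obtain ⟨h1, h2⟩ := (sp_iff (sh_lt hm)).1 hs
      exact (hW _ h1).2 h2

theorem cj (tod : Tod V ρ ψ) {hω : ω ∈ NN V} {x : M24} (eω : ρ ⟨ω, hω⟩ = x) (c : Finset GolayPt)
    (h : Even c.card) : ω * ψ c * ω⁻¹ = ψ (x • c) := by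
  rw [← eω]; exact tod.act ⟨ω, hω⟩ c h

theorem comm1 (st : St V ρ) (tod : Tod V ρ ψ) {hω : ω ∈ NN V} {x : M24} (eω : ρ ⟨ω, hω⟩ = x)
    (c : Finset GolayPt) (hc : Even c.card) : ⁅ψ c, ω⁆ = ψ (symmDiff c (x • c)) := by
  rw [tod.add c _ hc (evs _ c hc), ← cj tod eω c hc,
    commutatorElement_def, inv_eq_of_mul_eq_one_right (st.el _ (tod.mem c hc))]
  group

theorem comm2 (st : St V ρ) (tod : Tod V ρ ψ) {hω : ω ∈ NN V} {x : M24} (eω : ρ ⟨ω, hω⟩ = x)
    (c : Finset GolayPt) (hc : Even c.card) : ⁅ω, ψ c⁆ = ψ (symmDiff (x • c) c) := by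
  rw [tod.add _ c (evs _ c hc) hc, ← cj tod eω c hc,
    commutatorElement_def, inv_eq_of_mul_eq_one_right (st.el _ (tod.mem c hc))]

theorem ord3 {hω : ω ∈ NN V} {x : M24} (eω : ρ ⟨ω, hω⟩ = x) (hx : x ≠ 1) (h : ω ^ 3 = 1) :
    orderOf ω = 3 := by
  have : Fact (Nat.Prime 3) := ⟨Nat.prime_three⟩
  refine orderOf_eq_prime h fun e => hx ?_
  rw [← eω, show (⟨ω, hω⟩ : NN V) = 1 from Subtype.ext e, map_one]

theorem fW (st : St V ρ) (tod : Tod V ρ ψ) {hω : ω ∈ NN V} (eω : ρ ⟨ω, hω⟩ = toM rS)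
    {Z : Subgroup G} (hz : ∀ c : Finset GolayPt, Even c.card →
      (ψ c ∈ Z ↔ IsWord c ∨ IsWord (symmDiff c t0))) {m : ℕ} (hm : m < 4096)
    (hs : sp (sh m) = true) (h : ⁅ω, ψ (toSet (sh m))⁆ ∈ Z) : ψ (toSet (sh m)) ∈ Z := by
  have ev := ((sp_iff (sh_lt hm)).1 hs).1
  rw [comm2 st tod eω _ ev, hz _ (even_symmDiff (evs _ _ ev) ev), toM_smul_toSet inM_rS,
    ← toSet_xor, ← zb_iff (xor_lt (img_lt (inM_isPerm inM_rS) _) (sh_lt hm))] at h
  rw [hz _ ev, ← zb_iff (sh_lt hm)]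
  exact fW_sh hm hs h

theorem fR (st : St V ρ) {hω : ω ∈ NN V} {x : M24} (eω : ρ ⟨ω, hω⟩ = x) {F : Subgroup M24}
    (hF : ∀ y ∈ F, x * y = y * x → y = 1) : ∀ r ∈ pre V ρ F, ⁅ω, r⁆ ∈ V → r ∈ V := by
  intro r hr h
  obtain ⟨hn, hf⟩ := mem_pre.1 hr
  have h1 := (st.ker ⁅(⟨ω, hω⟩ : NN V), ⟨r, hn⟩⁆).2 h
  rw [map_commutatorElement, commutatorElement_eq_one_iff_mul_comm, eω] at h1
  exact (st.ker ⟨r, hn⟩).1 (hF _ hf h1)

theorem nrm (st : St V ρ) {S F : Subgroup M24} (h : pre V ρ S ≤ NN (pre V ρ F)) :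
    ∀ g ∈ S, ∀ f ∈ F, g * f * g⁻¹ ∈ F := fun g hg f hf => by
  obtain ⟨n, rfl⟩ := st.sur g
  obtain ⟨k, rfl⟩ := st.sur f
  rw [← map_inv, ← map_mul, ← map_mul, ← coe_mem_pre]
  exact (mem_normalizer_iff.1 (h (coe_mem_pre.2 hg)) _).1 (coe_mem_pre.2 hf)

theorem sl {hω : ω ∈ NN V} {x : M24} (eω : ρ ⟨ω, hω⟩ = x) {S F : Subgroup M24}
    (h : ∀ g ∈ S, g * x * g⁻¹ * x⁻¹ ∈ F ∨ g * x * g⁻¹ * x ∈ F) :
    ∀ m ∈ pre V ρ S, ⁅m, ω⁆ ∈ pre V ρ F ∨ m * ω * m⁻¹ * ω ∈ pre V ρ F := by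
  intro m hm
  obtain ⟨hn, hm⟩ := mem_pre.1 hm
  have := h _ hm
  rw [← eω, ← map_inv, ← map_inv, ← map_mul, ← map_mul, ← map_mul, ← map_mul, ← coe_mem_pre,
    ← coe_mem_pre] at this
  exact this

theorem inv (st : St V ρ) {hω : ω ∈ NN V} {x : M24} (eω : ρ ⟨ω, hω⟩ = x) {S F : Subgroup M24}
    {g : M24} (hg : g ∈ S) (h : g * x * g⁻¹ * x⁻¹ ∉ F) : ∃ m ∈ pre V ρ S, ⁅m, ω⁆ ∉ pre V ρ F := by
  obtain ⟨n, rfl⟩ := st.sur g
  refine ⟨n, coe_mem_pre.2 hg, fun k => h ?_⟩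
  rw [← eω, ← map_inv, ← map_inv, ← map_mul, ← map_mul, ← map_mul, ← coe_mem_pre]
  exact k

end

theorem ta (kit : KitTStmt.{u}) (va : VaTStmt.{u}) : TaStmt.{u} := by
  intro G _ _ V ρ ψ ω T
  obtain ⟨hM, hW, hz, hc, hF, -⟩ := kit G V ρ ψ T.st T.tod
  have A := va G V ρ ψ ω T
  obtain ⟨hω, eω⟩ := T.om
  have st := T.st
  have tod := T.tod
  have hn := A.nR
  rw [hM, RT] at hn
  refine ⟨card_W st tod A.WV hW, ?_, ?_, ?_, ord3 eω rS_ne T.o3, ?_, ?_, ?_, ?_, ?_⟩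
  · rw [RT, hc, hF]; norm_num
  · rw [hM, hc, card_stab_sextet sext0_mem]; norm_num
  · rw [hM]; exact mem_pre.2 ⟨hω, by rw [eω]; exact rS_mem⟩
  · intro v hv
    obtain ⟨c, hc, rfl⟩ := tod.sur v hv
    rw [comm1 st tod eω c hc]
    exact (hW _ (even_symmDiff hc (evs _ c hc))).2 fun t ht t' ht' =>
      (par_rS c t ht).trans (par_rS c t' ht').symm
  · intro w hw h
    obtain ⟨m, hm, hs, rfl⟩ := rep st tod A.WV hW w hw
    exact fW st tod eω hz hm hs h
  · rw [RT]; exact fR st eω fun y hy => F_fpf hy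
  · rw [hM, RT]; exact sl eω (slS (nrm st hn))
  · rw [hM, RT]; exact inv st eω g1_mem g1_not

end Cfsg.Agent.H85.RfTa
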